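import Mathlib
import Cfsg.Prelude.Def_KGroupFacts
import Cfsg.Agent.Lib.Schur.Pullback

/-!
The Schur multiplier of a metacyclic group.
-/

set_option autoImplicit false

namespace Cfsg.Agent.Schur

open Subgroup Function
open scoped commutatorElement IsMulCommutative

universe u v w

section CycExt

variable {H : Type u} [Group H]

/-- The extension of `H` by an infinite cyclic group acting through `φ`. -/
abbrev CycExt (φ : MulAut H) : Type u := H ⋊[zpowersHom (MulAut H) φ] Multiplicative ℤ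

theorem semiconj_zpow {G : Type*} [Group G] (f : H →* G) (φ : MulAut H) (b : G)
    (h : ∀ x, f (φ x) = b * f x * b⁻¹) (k : ℤ) : ∀ x, f ((φ ^ k) x) = b ^ k * f x * (b ^ k)⁻¹ := by
  have h' : ∀ x, f (φ⁻¹ x) = b⁻¹ * f x * b := fun x => by
    have := h (φ⁻¹ x)
    rw [MulAut.apply_inv_self] at this
    rw [this]; group
  induction k using Int.induction_on with
  | zero => simp
  | succ i ih => intro x; rw [zpow_add_one, MulAut.mul_apply, ih, h, zpow_add_one]; group
  | pred i ih => intro x; rw [zpow_sub_one, MulAut.mul_apply, ih, h', zpow_sub_one]; group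

/-- The homomorphism out of `CycExt φ` given by `f` on `H` and `b` on the generator. -/
def cycLift {G : Type*} [Group G] (φ : MulAut H) (f : H →* G) (b : G)
    (h : ∀ x, f (φ x) = b * f x * b⁻¹) : CycExt φ →* G :=
  SemidirectProduct.lift f (zpowersHom G b) (fun g => by
    ext x
    exact semiconj_zpow f φ b h g.toAdd x)

theorem cycLift_apply {G : Type*} [Group G] (φ : MulAut H) (f : H →* G) (b : G)
    (h : ∀ x, f (φ x) = b * f x * b⁻¹) (x : CycExt φ) :
    cycLift φ f b h x = f x.left * b ^ x.right.toAdd := rfl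

theorem mem_center_cycExt [IsMulCommutative H] (φ : MulAut H) (x : CycExt φ)
    (h1 : φ x.left = x.left) (h2 : φ ^ x.right.toAdd = 1) : x ∈ center (CycExt φ) := by
  rw [Subgroup.mem_center_iff]
  intro g
  have h3 : (φ ^ g.right.toAdd) x.left = x.left :=
    (MulAction.stabilizer (MulAut H) x.left).zpow_mem h1 _
  ext
  · simp only [SemidirectProduct.mul_left, zpowersHom_apply, h2, h3, MulAut.one_apply]
    exact mul_comm' _ _
  · simp only [SemidirectProduct.mul_right, mul_comm]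

theorem cycExt_conj (φ : MulAut H) (x : H) :
    (SemidirectProduct.inr (Multiplicative.ofAdd 1) * SemidirectProduct.inl x *
      (SemidirectProduct.inr (Multiplicative.ofAdd 1))⁻¹ : CycExt φ) =
      SemidirectProduct.inl (φ x) := by
  have := SemidirectProduct.inl_aut (φ := zpowersHom (MulAut H) φ) (Multiplicative.ofAdd 1) x
  rw [← map_inv, ← this]
  simp

end CycExt

section Meta

variable {G : Type u} [Group G]

theorem metacyclic_upper (a b : G) (m n r t D e : ℕ) (hr : 0 < r) (he : 0 < e)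
    (hgen : closure {a, b} = ⊤) (ha : orderOf a = m) (hb : b ^ n = a ^ t)
    (hab : b * a * b⁻¹ = a ^ r) (hD : ∀ j : ℤ, (m : ℤ) ∣ ((r : ℤ) - 1) * j → (D : ℤ) ∣ j)
    (hN : D * e = Nat.gcd t (Nat.gcd m (∑ i ∈ Finset.range n, r ^ i)))
    (Δ : Type v) [Group Δ] [Finite Δ] (τ : Δ →* G) (hτ : IsStemExtension τ) :
    Nat.card τ.ker ≤ e := by
  obtain ⟨α, hα⟩ := hτ.1 a
  obtain ⟨β, hβ⟩ := hτ.1 b
  obtain ⟨r', rfl⟩ : ∃ r', r = r' + 1 := ⟨r - 1, by omega⟩
  have hcen : ∀ x y : Δ, τ x = τ y → ∃ k ∈ center Δ, x = y * k := fun x y h =>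
    ⟨y⁻¹ * x, hτ.2.1 (by simp [MonoidHom.mem_ker, h]), by group⟩
  set c := β * α * β⁻¹ * α⁻¹ with hc
  have hτc : τ c = a ^ r' := by
    simp only [hc, map_mul, map_inv, hα, hβ, hab]; group
  obtain ⟨k₀, hk₀, hck⟩ := hcen c (α ^ r') (by rw [hτc, map_pow, hα])
  have hk₀' : ∀ g, Commute g k₀ := Subgroup.mem_center_iff.mp hk₀
  have hcα : Commute c α := by
    rw [hck]; exact ((Commute.refl α).pow_left r').mul_left (hk₀' α).symm
  have h1 : β * α * β⁻¹ = c * α := by rw [hc]; group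
  have h2 : ∀ i : ℕ, β * α ^ i * β⁻¹ = c ^ i * α ^ i := fun i => by
    rw [← conj_pow, h1, hcα.mul_pow]
  have h3 : β * c * β⁻¹ = c ^ (r' + 1) := by
    calc β * c * β⁻¹ = β * α ^ r' * (k₀ * β⁻¹) := by rw [hck]; group
      _ = (β * α ^ r' * β⁻¹) * k₀ := by rw [← (hk₀' β⁻¹).eq]; group
      _ = c ^ (r' + 1) := by rw [h2, mul_assoc, ← hck, pow_succ]
  have h4 : ∀ j : ℕ, β ^ j * α * (β ^ j)⁻¹ = c ^ (∑ i ∈ Finset.range j, (r' + 1) ^ i) * α := by
    intro j
    induction j with
    | zero => simp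
    | succ j ih =>
      calc β ^ (j + 1) * α * (β ^ (j + 1))⁻¹ = β * (β ^ j * α * (β ^ j)⁻¹) * β⁻¹ := by group
        _ = (β * c * β⁻¹) ^ (∑ i ∈ Finset.range j, (r' + 1) ^ i) * (β * α * β⁻¹) := by
          rw [ih, conj_pow]; group
        _ = _ := by rw [h3, h1, geom_sum_succ, pow_succ c (_ * _), pow_mul, ← mul_assoc]
  have h5 : ∀ i : ℕ, Commute β (α ^ i) → c ^ i = 1 := fun i h => by
    have := h2 i
    rw [h.eq, mul_inv_cancel_right] at this
    exact right_eq_mul.mp this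
  obtain ⟨v, hv, hβn⟩ := hcen (β ^ n) (α ^ t) (by rw [map_pow, map_pow, hα, hβ, hb])
  have hv' : ∀ g, Commute g v := Subgroup.mem_center_iff.mp hv
  have hct : c ^ t = 1 := h5 t (by
    have : α ^ t = β ^ n * v⁻¹ := by rw [hβn]; group
    rw [this]; exact ((Commute.refl β).pow_right n).mul_right (hv' β).inv_right)
  have hcm : c ^ m = 1 := h5 m (Subgroup.mem_center_iff.mp (hτ.2.1 (by
    rw [MonoidHom.mem_ker, map_pow, hα, ← ha, pow_orderOf_eq_one])) β)
  have hcs : c ^ (∑ i ∈ Finset.range n, (r' + 1) ^ i) = 1 := by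
    have h6 : Commute (β ^ n) α := by
      rw [hβn]; exact ((Commute.refl α).pow_left t).mul_left (hv' α).symm
    have := h4 n
    rw [h6.eq, mul_inv_cancel_right] at this
    exact right_eq_mul.mp this
  have hcN : (c ^ D) ^ e = 1 := by
    rw [← pow_mul, hN, pow_gcd_eq_one, pow_gcd_eq_one]
    exact ⟨hct, hcm, hcs⟩
  have hgen' : closure {α, β} = (⊤ : Subgroup Δ) := by
    have hs : Surjective (τ.comp (closure {α, β}).subtype) := by
      rw [← MonoidHom.range_eq_top, MonoidHom.range_comp, range_subtype, MonoidHom.map_closure,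
        Set.image_pair, hα, hβ, hgen]
    have := surjective_of_comp_stem _ hs τ hτ (closure {α, β}).subtype rfl
    rwa [← MonoidHom.range_eq_top, range_subtype] at this
  have hnorm : (zpowers c).Normal := by
    rw [← normalizer_eq_top_iff, eq_top_iff, ← hgen', closure_le]
    rintro x (rfl | rfl)
    · apply mem_normalizer_fintype
      rintro _ ⟨j, rfl⟩
      simp only [SetLike.mem_coe]
      rw [← (hcα.zpow_left j).eq, mul_inv_cancel_right]
      exact zpow_mem (mem_zpowers c) j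
    · apply mem_normalizer_fintype
      rintro _ ⟨j, rfl⟩
      simp only [SetLike.mem_coe]
      rw [← conj_zpow, h3]
      exact zpow_mem (pow_mem (mem_zpowers c) _) j
  have hcomm : commutator Δ ≤ zpowers c := by
    rw [← Normal.quotient_commutative_iff_commutator_le]
    let q := QuotientGroup.mk' (zpowers c)
    have h7 : closure {q α, q β} = ⊤ := by
      rw [← Set.image_pair, ← MonoidHom.map_closure, hgen', ← MonoidHom.range_eq_map,
        MonoidHom.range_eq_top.mpr (QuotientGroup.mk'_surjective _)]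
    have h8 : q β * q α = q α * q β := by
      have : q (β * α * β⁻¹ * α⁻¹) = 1 := (QuotientGroup.eq_one_iff _).mpr (mem_zpowers c)
      rw [map_mul, map_mul, map_mul, map_inv, map_inv] at this
      exact commutatorElement_eq_one_iff_mul_comm.mp this
    have h9 : IsMulCommutative (closure {q α, q β}) := isMulCommutative_closure (by
      rintro x (rfl | rfl) y (rfl | rfl)
      exacts [rfl, h8.symm, h8, rfl])
    exact ⟨⟨fun x y => setLike_mul_comm (s := closure {q α, q β}) (h7 ▸ mem_top x)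
      (h7 ▸ mem_top y)⟩⟩
  have hK : τ.ker ≤ zpowers (c ^ D) := by
    intro x hx
    obtain ⟨j, rfl⟩ := hcomm (hτ.2.2 hx)
    rw [MonoidHom.mem_ker, map_zpow, hτc, ← zpow_natCast, ← zpow_mul,
      ← orderOf_dvd_iff_zpow_eq_one, ha] at hx
    obtain ⟨i, rfl⟩ := hD j (by simpa using hx)
    exact ⟨i, by simp only [zpow_mul, zpow_natCast]⟩
  calc Nat.card τ.ker ≤ Nat.card (zpowers (c ^ D)) := card_le_of_le hK
    _ = orderOf (c ^ D) := Nat.card_zpowers _
    _ ≤ e := orderOf_le_of_pow_eq_one he hcN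

/-- The automorphism `(i, j) ↦ (i, i + r j)` of `ℤ × ZMod N`. -/
def metaAut (N : ℕ) (r r' : ZMod N) (h : r * r' = 1) : MulAut (Multiplicative (ℤ × ZMod N)) where
  toFun x := Multiplicative.ofAdd (x.toAdd.1, x.toAdd.1 + r * x.toAdd.2)
  invFun x := Multiplicative.ofAdd (x.toAdd.1, r' * (x.toAdd.2 - x.toAdd.1))
  left_inv x := by
    apply Multiplicative.toAdd.injective
    ext
    · rfl
    · simp only [toAdd_ofAdd]; linear_combination x.toAdd.2 * h
  right_inv x := by
    apply Multiplicative.toAdd.injective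
    ext
    · rfl
    · simp only [toAdd_ofAdd]; linear_combination (x.toAdd.2 - x.toAdd.1) * h
  map_mul' x y := by
    apply Multiplicative.toAdd.injective
    ext
    · rfl
    · simp only [toAdd_ofAdd, toAdd_mul, Prod.fst_add, Prod.snd_add, Int.cast_add]; ring

theorem metaAut_apply (N : ℕ) (r r' : ZMod N) (h : r * r' = 1) (i : ℤ) (j : ZMod N) :
    metaAut N r r' h (Multiplicative.ofAdd (i, j)) = Multiplicative.ofAdd (i, i + r * j) := rfl

theorem metaAut_pow (N : ℕ) (r r' : ZMod N) (h : r * r' = 1) (k : ℕ) (i : ℤ) (j : ZMod N) :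
    (metaAut N r r' h ^ k) (Multiplicative.ofAdd (i, j)) =
      Multiplicative.ofAdd (i, (∑ l ∈ Finset.range k, r ^ l) * i + r ^ k * j) := by
  induction k with
  | zero => simp
  | succ k ih =>
    rw [pow_succ', MulAut.mul_apply, ih, metaAut_apply, geom_sum_succ]
    congr 2; ring

theorem metacyclic_lower (a b : G) (m n r t D e : ℕ) (hn : 0 < n) (he : 0 < e) (hD0 : 0 < D)
    (hrn : r ^ n ≡ 1 [MOD m])
    (hgen : closure {a, b} = ⊤) (ha : orderOf a = m) (hb : b ^ n = a ^ t)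
    (hab : b * a * b⁻¹ = a ^ r) (hind : ∀ k : ℤ, b ^ k ∈ zpowers a → (n : ℤ) ∣ k)
    (hD : (m : ℤ) ∣ ((r : ℤ) - 1) * D)
    (hN : D * e = Nat.gcd t (Nat.gcd m (∑ i ∈ Finset.range n, r ^ i))) :
    ∃ (X : Type) (_ : Group X) (ξ : X →* G), Surjective ξ ∧ ξ.ker ≤ center X ∧
      ∃ w ∈ ξ.ker ⊓ commutator X, orderOf w = e := by
  set N := D * e with hNdef
  have : NeZero N := ⟨(Nat.mul_pos hD0 he).ne'⟩
  have hNt : N ∣ t := hN ▸ Nat.gcd_dvd_left _ _
  have hNm : N ∣ m := hN ▸ (Nat.gcd_dvd_right _ _).trans (Nat.gcd_dvd_left _ _)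
  have hNs : N ∣ ∑ i ∈ Finset.range n, r ^ i :=
    hN ▸ (Nat.gcd_dvd_right _ _).trans (Nat.gcd_dvd_right _ _)
  have hrn' : (r : ZMod N) ^ n = 1 := by
    have := (ZMod.natCast_eq_natCast_iff _ _ _).mpr (hrn.of_dvd hNm)
    simpa using this
  have hrr : (r : ZMod N) * (r : ZMod N) ^ (n - 1) = 1 := by
    rw [← pow_succ', Nat.sub_add_cancel hn, hrn']
  let φ := metaAut N r _ hrr
  have hφn : φ ^ n = 1 := by
    ext1 x
    have := metaAut_pow N r _ hrr n x.toAdd.1 x.toAdd.2
    have hs : ∑ l ∈ Finset.range n, (r : ZMod N) ^ l = 0 := by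
      have := (ZMod.natCast_eq_zero_iff _ _).mpr hNs
      simpa using this
    rw [hs, hrn', zero_mul, zero_add, one_mul] at this
    exact this
  have hf0 : ∀ i j : ℤ, a ^ (i + ((r : ℤ) - 1) * ((j : ZMod N).val : ℤ)) =
      a ^ (i + ((r : ℤ) - 1) * j) := fun i j => by
    rw [zpow_eq_zpow_iff_modEq, ha, ZMod.val_intCast]
    refine Int.ModEq.add_left _ (Int.modEq_iff_dvd.mpr ?_)
    rw [← mul_sub, Int.emod_def, sub_sub_cancel, hNdef, Nat.cast_mul, mul_assoc, ← mul_assoc]
    exact hD.mul_right _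
  let f : Multiplicative (ℤ × ZMod N) →* G :=
    { toFun := fun x => a ^ (x.toAdd.1 + ((r : ℤ) - 1) * (x.toAdd.2.val : ℤ))
      map_one' := by simp
      map_mul' := fun x y => by
        obtain ⟨j, hj⟩ := ZMod.intCast_surjective x.toAdd.2
        obtain ⟨j', hj'⟩ := ZMod.intCast_surjective y.toAdd.2
        simp only [toAdd_mul, Prod.fst_add, Prod.snd_add]
        rw [← hj, ← hj', ← Int.cast_add, hf0, hf0, hf0, ← zpow_add]
        congr 1; ring }
  have hf : ∀ i j : ℤ, f (Multiplicative.ofAdd (i, (j : ZMod N))) = a ^ (i + ((r : ℤ) - 1) * j) :=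
    hf0
  have hsurj : ∀ x : Multiplicative (ℤ × ZMod N), ∃ i j : ℤ,
      x = Multiplicative.ofAdd (i, (j : ZMod N)) := fun x => by
    obtain ⟨j, hj⟩ := ZMod.intCast_surjective x.toAdd.2
    exact ⟨x.toAdd.1, j, by rw [hj]; rfl⟩
  have hfφ : ∀ x, f (φ x) = b * f x * b⁻¹ := fun x => by
    obtain ⟨i, j, rfl⟩ := hsurj x
    have : ((i : ZMod N) + (r : ZMod N) * (j : ZMod N)) = ((i + r * j : ℤ) : ZMod N) := by simp
    rw [metaAut_apply, this, hf, hf, ← conj_zpow, hab, ← zpow_natCast, ← zpow_mul]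
    congr 1; ring
  refine ⟨CycExt φ, inferInstance, cycLift φ f b hfφ, ?_, ?_, ?_⟩
  · rw [← MonoidHom.range_eq_top, eq_top_iff, ← hgen, closure_le]
    rintro x (rfl | rfl)
    · exact ⟨SemidirectProduct.inl (Multiplicative.ofAdd (1, ((0 : ℤ) : ZMod N))), by
        rw [cycLift_apply, SemidirectProduct.left_inl, hf]; simp⟩
    · exact ⟨SemidirectProduct.inr (Multiplicative.ofAdd 1), by simp [cycLift_apply]⟩
  · intro x hx
    rw [MonoidHom.mem_ker, cycLift_apply] at hx
    obtain ⟨i, j, hij⟩ := hsurj x.left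
    rw [hij, hf] at hx
    obtain ⟨k, hk⟩ := hind x.right.toAdd (by
      rw [← eq_inv_iff_mul_eq_one] at hx
      rw [← inv_mem_iff, ← hx]; exact zpow_mem (mem_zpowers a) _)
    rw [hk, zpow_mul, zpow_natCast, hb, ← zpow_natCast, ← zpow_mul, ← zpow_add,
      ← orderOf_dvd_iff_zpow_eq_one, ha] at hx
    apply mem_center_cycExt
    · rw [hij, metaAut_apply]
      have h1 : (N : ℤ) ∣ i + ((r : ℤ) - 1) * j :=
        (dvd_add_left ((Int.natCast_dvd_natCast.mpr hNt).mul_right k)).mp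
          ((Int.natCast_dvd_natCast.mpr hNm).trans hx)
      have h2 := (ZMod.intCast_zmod_eq_zero_iff_dvd _ _).mpr h1
      congr 2
      push_cast at h2
      linear_combination h2
    · rw [hk, zpow_mul, zpow_natCast, hφn, one_zpow]
  · let c : CycExt φ := SemidirectProduct.inl (Multiplicative.ofAdd (0, 1))
    have hc : c ∈ commutator (CycExt φ) := by
      have : c = ⁅(SemidirectProduct.inr (Multiplicative.ofAdd 1) : CycExt φ),
          SemidirectProduct.inl (Multiplicative.ofAdd (1, 0))⁆ := by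
        rw [commutatorElement_def, cycExt_conj, metaAut_apply, ← map_inv, ← map_mul]
        simp only [c]
        congr 1
        apply Multiplicative.toAdd.injective
        simp
      rw [this]
      exact commutator_mem_commutator (mem_top _) (mem_top _)
    have hoc : orderOf c = N := by
      rw [orderOf_injective SemidirectProduct.inl SemidirectProduct.inl_injective,
        orderOf_ofAdd_eq_addOrderOf, Prod.addOrderOf_mk]
      simp
    refine ⟨c ^ D, ⟨?_, pow_mem hc D⟩, ?_⟩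
    · show cycLift φ f b hfφ (c ^ D) = 1
      have := hf 0 1
      rw [Int.cast_one] at this
      rw [map_pow, cycLift_apply, SemidirectProduct.left_inl, this, SemidirectProduct.right_inl,
        toAdd_one, zpow_zero, mul_one, ← zpow_natCast, ← zpow_mul,
        ← orderOf_dvd_iff_zpow_eq_one, ha]
      simpa using hD
    · rw [orderOf_pow_of_dvd hD0.ne' (by rw [hoc]; exact Dvd.intro _ rfl), hoc, hNdef,
        Nat.mul_div_cancel_left _ hD0]

theorem metacyclic_multiplier_aux [Finite G] (a b : G) (m n r t D e : ℕ) (hn : 0 < n) (hr : 0 < r)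
    (he : 0 < e) (hD0 : 0 < D) (hrn : r ^ n ≡ 1 [MOD m])
    (hgen : closure {a, b} = ⊤) (ha : orderOf a = m) (hb : b ^ n = a ^ t)
    (hab : b * a * b⁻¹ = a ^ r) (hind : ∀ k : ℤ, b ^ k ∈ zpowers a → (n : ℤ) ∣ k)
    (hD : ∀ j : ℤ, (m : ℤ) ∣ ((r : ℤ) - 1) * j ↔ (D : ℤ) ∣ j)
    (hN : D * e = Nat.gcd t (Nat.gcd m (∑ i ∈ Finset.range n, r ^ i))) :
    HasCyclicSchurMultiplier G e := by
  have : NeZero e := ⟨he.ne'⟩
  obtain ⟨M, _, hM⟩ := exists_hasSchurMultiplier G
  have := finite_mult hM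
  have h1 : Nat.card M ≤ e := by
    obtain ⟨Γ, _, _, σ, hσ, ⟨f⟩⟩ := hM.1
    rw [← Nat.card_congr f.toEquiv]
    exact metacyclic_upper a b m n r t D e hr he hgen ha hb hab (fun j => (hD j).mp) hN Γ σ hσ
  obtain ⟨X, _, ξ, hξ, hc, w, hw, hwe⟩ := metacyclic_lower a b m n r t D e hn he hD0 hrn hgen ha
    hb hab hind ((hD D).mpr dvd_rfl) hN
  obtain ⟨π, hπ⟩ := exists_surjective_of_central hM ξ hξ hc
  obtain ⟨x, hx⟩ := hπ ⟨w, hw⟩
  have h2 : e ∣ orderOf x := by
    rw [← hwe, ← Subgroup.orderOf_mk w hw, ← hx]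
    exact orderOf_map_dvd π x
  have h3 : e ≤ orderOf x := Nat.le_of_dvd (orderOf_pos x) h2
  have h4 : orderOf x ≤ Nat.card M := orderOf_le_card
  have hcyc : IsCyclic M := isCyclic_of_orderOf_eq_card x (by omega)
  have h5 : Nat.card M = Nat.card (Multiplicative (ZMod e)) := by
    rw [Nat.card_congr Multiplicative.toAdd, Nat.card_zmod]; omega
  exact mult_congr hM (MulEquiv.refl G) (mulEquivOfCyclicCardEq h5)

/-- The Schur multiplier of a finite metacyclic group. -/
theorem metacyclic_multiplier [Finite G] (a b : G) (m n r l : ℕ) (hm : 0 < m) (hn : 0 < n)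
    (hr : 0 < r) (hrn : r ^ n ≡ 1 [MOD m])
    (hgen : closure {a, b} = ⊤) (ha : orderOf a = m)
    (hb : b ^ n = a ^ (m * l / Nat.gcd m (r - 1)))
    (hab : b * a * b⁻¹ = a ^ r) (hind : ∀ k : ℤ, b ^ k ∈ zpowers a → (n : ℤ) ∣ k) :
    HasCyclicSchurMultiplier G
      (Nat.gcd l (Nat.gcd m (r - 1) * Nat.gcd m (∑ i ∈ Finset.range n, r ^ i) / m)) := by
  set d := Nat.gcd m (r - 1) with hd
  set s := ∑ i ∈ Finset.range n, r ^ i with hs
  have hd0 : 0 < d := Nat.gcd_pos_of_pos_left _ hm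
  obtain ⟨D, hD⟩ : d ∣ m := Nat.gcd_dvd_left _ _
  obtain ⟨u, hu⟩ : d ∣ r - 1 := Nat.gcd_dvd_right _ _
  have hD0 : 0 < D := Nat.pos_of_mul_pos_left (hD ▸ hm)
  have hcop : Nat.Coprime D u := by
    have : d * Nat.gcd D u = d * 1 := by rw [← Nat.gcd_mul_left, ← hD, ← hu, mul_one]
    exact Nat.eq_of_mul_eq_mul_left hd0 this
  have hu' : (r : ℤ) - 1 = d * u := by
    have : ((r - 1 : ℕ) : ℤ) = (r : ℤ) - 1 := by rw [Nat.cast_sub hr]; simp
    rw [← this, hu]; simp
  have hDiff : ∀ j : ℤ, (m : ℤ) ∣ ((r : ℤ) - 1) * j ↔ (D : ℤ) ∣ j := fun j => by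
    have hm' : (m : ℤ) = d * D := by exact_mod_cast hD
    rw [hu', hm', mul_assoc, mul_dvd_mul_iff_left (by exact_mod_cast hd0.ne')]
    exact ⟨fun h => (Nat.isCoprime_iff_coprime.mpr hcop).dvd_of_dvd_mul_left h,
      fun h => h.mul_left _⟩
  have hDs : D ∣ s := by
    rw [← Int.natCast_dvd_natCast, ← hDiff, hs]
    push_cast
    rw [mul_geom_sum]
    have := hrn.symm.dvd
    simpa using this
  obtain ⟨h, hh⟩ : D ∣ Nat.gcd m s := Nat.dvd_gcd (Dvd.intro_left _ hD.symm) hDs
  have e1 : d * Nat.gcd m s / m = h := by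
    rw [hh, ← mul_assoc, ← hD, Nat.mul_div_cancel_left _ hm]
  have e2 : m * l / d = D * l := by
    conv_lhs => rw [hD]
    rw [mul_assoc, Nat.mul_div_cancel_left _ hd0]
  have hh0 : 0 < h := Nat.pos_of_mul_pos_left (hh ▸ Nat.gcd_pos_of_pos_left _ hm)
  rw [e1]
  rw [e2] at hb
  exact metacyclic_multiplier_aux a b m n r (D * l) D _ hn hr (Nat.gcd_pos_of_pos_right _ hh0) hD0
    hrn hgen ha hb hab hind hDiff (by rw [← hs, hh, Nat.gcd_mul_left])

end Meta

end Cfsg.Agent.Schur
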