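import Mathlib
import Cfsg.Prelude.Def_KGroupFacts
import Cfsg.Agent.Lib.Schur.Metacyclic

/-!
The Schur multiplier of dihedral groups.
-/

set_option autoImplicit false

namespace Cfsg.Agent.Schur

open Subgroup Function

theorem two_dvd_of_zpow_mem {G : Type*} [Group G] (H : Subgroup G) (b : G) (h2 : b ^ 2 ∈ H)
    (hb : b ∉ H) (k : ℤ) (hk : b ^ k ∈ H) : ((2 : ℕ) : ℤ) ∣ k := by
  by_contra h
  obtain ⟨q, rfl⟩ : ∃ q, k = 2 * q + 1 := ⟨k / 2, by omega⟩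
  rw [zpow_add_one, zpow_mul] at hk
  exact hb ((H.mul_mem_cancel_left (zpow_mem (by exact_mod_cast h2) q)).mp hk)

theorem sq_pred_modEq (m n : ℕ) (hm : 0 < m) (h : n ∣ m) : (m - 1) ^ 2 ≡ 1 [MOD n] := by
  obtain ⟨k, rfl⟩ : ∃ k, m = k + 1 := ⟨m - 1, by omega⟩
  rw [Nat.add_sub_cancel, Nat.modEq_iff_dvd]
  have : ((1 : ℕ) : ℤ) - ((k ^ 2 : ℕ) : ℤ) = ((k + 1 : ℕ) : ℤ) * (1 - k) := by push_cast; ring
  rw [this]
  exact (Int.natCast_dvd_natCast.mpr h).mul_right _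

open DihedralGroup in
theorem dihedral_multiplier (n D e : ℕ) (hD0 : 0 < D) (he : 0 < e) (hn : D * e = n)
    (hD : ∀ j : ℤ, (n : ℤ) ∣ 2 * j ↔ (D : ℤ) ∣ j) :
    HasCyclicSchurMultiplier (DihedralGroup n) e := by
  have hn0 : 0 < n := hn ▸ Nat.mul_pos hD0 he
  have : NeZero n := ⟨hn0.ne'⟩
  have hr : ∀ i : ZMod n, r i ∈ zpowers (r 1 : DihedralGroup n) := fun i =>
    ⟨(i.val : ℤ), by simp⟩
  have hcast : ((2 * n - 1 : ℕ) : ℤ) = 2 * n - 1 := by
    rw [Nat.cast_sub (by omega)]; simp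
  refine metacyclic_multiplier_aux (r 1) (sr 0) n 2 (2 * n - 1) 0 D e (by norm_num) (by omega) he
    hD0 (sq_pred_modEq _ _ (by omega) (Dvd.intro_left _ rfl)) ?_ orderOf_r_one (by simp [sq]) ?_
    ?_ ?_ ?_
  · rw [eq_top_iff]
    have h1 : zpowers (r 1 : DihedralGroup n) ≤ closure {r 1, sr 0} :=
      zpowers_le.mpr (subset_closure (by simp))
    rintro (i | i) _
    · exact h1 (hr i)
    · have : sr i = sr 0 * r i := by simp
      rw [this]
      exact mul_mem (subset_closure (by simp)) (h1 (hr i))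
  · rw [r_one_pow, Nat.cast_sub (by omega)]; simp
  · apply two_dvd_of_zpow_mem _ _ (by simp [sq])
    rintro ⟨k, hk⟩
    simp at hk
  · intro j
    rw [← hD, hcast]
    have : (2 * (n : ℤ) - 1 - 1) * j = n * (2 * j) - 2 * j := by ring
    rw [this, dvd_sub_right (Dvd.intro _ rfl)]
  · have : ∑ i ∈ Finset.range 2, (2 * n - 1) ^ i = 2 * n := by
      simp [Finset.sum_range_succ]; omega
    rw [this, hn]; simp

end Cfsg.Agent.Schur
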