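import Mathlib
import Cfsg.Prelude.Def_KGroupFacts
import Cfsg.Agent.Lib.Schur.Pullback

/-!
Central extensions from bimultiplicative maps; the multiplier of a direct product.
-/

set_option autoImplicit false

namespace Cfsg.Agent.Schur

open Subgroup Function
open scoped commutatorElement IsMulCommutative TensorProduct

universe u v w

/-- The central extension of `Γ` by `T` given by a bimultiplicative map `β`. -/
@[ext] structure Twist {Γ : Type u} {T : Type v} [Group Γ] [CommGroup T] (β : Γ →* Γ →* T) where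
  /-- the component in `Γ` -/
  fst : Γ
  /-- the component in `T` -/
  snd : T

namespace Twist

variable {Γ : Type u} {T : Type v} [Group Γ] [CommGroup T] {β : Γ →* Γ →* T}

instance instMulTwist : Mul (Twist β) := ⟨fun x y => ⟨x.fst * y.fst, x.snd * y.snd * β x.fst y.fst⟩⟩

instance instOneTwist : One (Twist β) := ⟨⟨1, 1⟩⟩

instance instInvTwist : Inv (Twist β) := ⟨fun x => ⟨x.fst⁻¹, x.snd⁻¹ * β x.fst x.fst⟩⟩

@[simp] theorem mul_fst (x y : Twist β) : (x * y).fst = x.fst * y.fst := rfl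
@[simp] theorem mul_snd (x y : Twist β) : (x * y).snd = x.snd * y.snd * β x.fst y.fst := rfl
@[simp] theorem one_fst : (1 : Twist β).fst = 1 := rfl
@[simp] theorem one_snd : (1 : Twist β).snd = 1 := rfl
@[simp] theorem inv_fst (x : Twist β) : (x⁻¹).fst = x.fst⁻¹ := rfl
@[simp] theorem inv_snd (x : Twist β) : (x⁻¹).snd = x.snd⁻¹ * β x.fst x.fst := rfl

instance instGroupTwist : Group (Twist β) where
  mul_assoc x y z := by
    ext
    · simp [mul_assoc]
    · simp only [mul_snd, mul_fst, map_mul, MonoidHom.mul_apply]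
      simp only [mul_assoc, mul_comm, mul_left_comm]
  one_mul x := by ext <;> simp
  mul_one x := by ext <;> simp
  inv_mul_cancel x := by
    ext
    · simp
    · simp [mul_comm]

/-- The projection to `Γ`. -/
def proj (β : Γ →* Γ →* T) : Twist β →* Γ where
  toFun := fst
  map_one' := rfl
  map_mul' _ _ := rfl

@[simp] theorem proj_apply (x : Twist β) : proj β x = x.fst := rfl

theorem proj_surjective : Surjective (proj β) := fun g => ⟨⟨g, 1⟩, rfl⟩

theorem mem_center (x : Twist β) (h1 : x.fst ∈ center Γ) (h2 : ∀ g, β g x.fst = β x.fst g) :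
    x ∈ center (Twist β) := by
  rw [Subgroup.mem_center_iff] at h1 ⊢
  intro g
  ext
  · exact h1 _
  · simp only [mul_snd, h2]; ac_rfl

theorem commutator_eq (g h : Γ) (hgh : g * h = h * g) :
    ⁅(⟨g, 1⟩ : Twist β), (⟨h, 1⟩ : Twist β)⁆ = (⟨1, β g h * (β h g)⁻¹⟩ : Twist β) := by
  rw [commutatorElement_def, mul_inv_eq_iff_eq_mul, mul_inv_eq_iff_eq_mul]
  ext
  · simp [hgh]
  · simp

end Twist

/-- The tensor product of the abelianizations, written multiplicatively. -/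
abbrev AbTensor (Q₁ : Type u) (Q₂ : Type v) [Group Q₁] [Group Q₂] : Type (max u v) :=
  Multiplicative (TensorProduct ℤ (Additive (Abelianization Q₁)) (Additive (Abelianization Q₂)))

section Tensor

variable {Q₁ : Type u} {Q₂ : Type v} [Group Q₁] [Group Q₂]

/-- The universal bimultiplicative map. -/
def abTmul (Q₁ : Type u) (Q₂ : Type v) [Group Q₁] [Group Q₂] : Q₁ →* Q₂ →* AbTensor Q₁ Q₂ where
  toFun a :=
    { toFun := fun b => Multiplicative.ofAdd
        (Additive.ofMul (Abelianization.of a) ⊗ₜ[ℤ] Additive.ofMul (Abelianization.of b))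
      map_one' := by simp
      map_mul' := fun b c => by simp [TensorProduct.tmul_add] }
  map_one' := by ext; simp
  map_mul' a a' := by ext; simp [TensorProduct.add_tmul]

theorem abTensor_induction {P : Subgroup (AbTensor Q₁ Q₂)} (h : ∀ a b, abTmul Q₁ Q₂ a b ∈ P)
    (t : AbTensor Q₁ Q₂) : t ∈ P := by
  have : ∀ s, Multiplicative.ofAdd s ∈ P := fun s => by
    induction s using TensorProduct.induction_on with
    | zero => exact P.one_mem
    | tmul x y =>
      obtain ⟨a, ha⟩ := QuotientGroup.mk'_surjective (commutator Q₁) x.toMul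
      obtain ⟨b, hb⟩ := QuotientGroup.mk'_surjective (commutator Q₂) y.toMul
      have := h a b
      have e1 : x = Additive.ofMul (Abelianization.of a) := congrArg Additive.ofMul ha.symm
      have e2 : y = Additive.ofMul (Abelianization.of b) := congrArg Additive.ofMul hb.symm
      rw [e1, e2]; exact this
    | add x y hx hy => exact P.mul_mem hx hy
  exact this t.toAdd

theorem exists_abTensor_lift {C : Type w} [CommGroup C] (γ : Q₁ →* Q₂ →* C) :
    ∃ g : AbTensor Q₁ Q₂ →* C, ∀ a b, g (abTmul Q₁ Q₂ a b) = γ a b := by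
  let γ₁ : Q₁ →* (Abelianization Q₂ →* C) :=
    { toFun := fun a => Abelianization.lift (γ a)
      map_one' := by ext; simp
      map_mul' := fun a b => by ext; simp }
  let γ₂ : Abelianization Q₁ →* (Abelianization Q₂ →* C) := Abelianization.lift γ₁
  let γ₃ : Additive (Abelianization Q₁) →+ (Additive (Abelianization Q₂) →+ Additive C) :=
    { toFun := fun a => MonoidHom.toAdditive (γ₂ a.toMul)
      map_zero' := by ext; simp
      map_add' := fun a b => by ext; simp }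
  let g := TensorProduct.liftAddHom (R := ℤ) γ₃ (fun r m n => by
    rw [map_zsmul, map_zsmul]; rfl)
  exact ⟨AddMonoidHom.toMultiplicativeLeft g, fun a b => rfl⟩

end Tensor

section Product

variable {Q₁ : Type u} {Q₂ : Type v} [Group Q₁] [Group Q₂]

theorem card_ker_le_prod {A B : Type*} [CommGroup A] [CommGroup B]
    (hA : HasSchurMultiplier Q₁ A) (hB : HasSchurMultiplier Q₂ B) [Finite (AbTensor Q₁ Q₂)]
    {Δ : Type w} [Group Δ] (τ : Δ →* Q₁ × Q₂) (hτ : IsStemExtension τ) :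
    Nat.card τ.ker ≤ Nat.card (A × B × AbTensor Q₁ Q₂) := by
  have := finite_mult hA
  have := finite_mult hB
  have := isMulCommutative_of_le_center hτ.2.1
  let Δ₁ := ((MonoidHom.snd Q₁ Q₂).comp τ).ker
  let Δ₂ := ((MonoidHom.fst Q₁ Q₂).comp τ).ker
  let τ₁ : Δ₁ →* Q₁ := ((MonoidHom.fst Q₁ Q₂).comp τ).comp Δ₁.subtype
  let τ₂ : Δ₂ →* Q₂ := ((MonoidHom.snd Q₁ Q₂).comp τ).comp Δ₂.subtype
  choose s hs using hτ.1
  have hk₁ : ∀ x : Δ₁, x ∈ τ₁.ker → (x : Δ) ∈ τ.ker := fun x hx => Prod.ext hx x.2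
  have hk₂ : ∀ x : Δ₂, x ∈ τ₂.ker → (x : Δ) ∈ τ.ker := fun x hx => Prod.ext x.2 hx
  obtain ⟨π₁, hπ₁⟩ := exists_surjective_of_central hA τ₁
    (fun q => ⟨⟨s (q, 1), congrArg Prod.snd (hs (q, 1))⟩, congrArg Prod.fst (hs (q, 1))⟩)
    (fun x hx => Subgroup.mem_center_iff.mpr fun g =>
      Subtype.ext (Subgroup.mem_center_iff.mp (hτ.2.1 (hk₁ x hx)) g))
  obtain ⟨π₂, hπ₂⟩ := exists_surjective_of_central hB τ₂
    (fun q => ⟨⟨s (1, q), congrArg Prod.fst (hs (1, q))⟩, congrArg Prod.snd (hs (1, q))⟩)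
    (fun x hx => Subgroup.mem_center_iff.mpr fun g =>
      Subtype.ext (Subgroup.mem_center_iff.mp (hτ.2.1 (hk₂ x hx)) g))
  have hmem : ∀ a b, ⁅s (a, 1), s (1, b)⁆ ∈ τ.ker := fun a b => by
    rw [MonoidHom.mem_ker, map_commutatorElement, hs, hs, commutatorElement_eq_one_iff_mul_comm]
    simp
  have hcen : ∀ a b g, g * ⁅s (a, 1), s (1, b)⁆ = ⁅s (a, 1), s (1, b)⁆ * g := fun a b =>
    Subgroup.mem_center_iff.mp (hτ.2.1 (hmem a b))
  let γ : Q₁ →* Q₂ →* τ.ker := MonoidHom.mk' (fun a => MonoidHom.mk'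
      (fun b => ⟨⁅s (a, 1), s (1, b)⁆, hmem a b⟩) (fun b c => Subtype.ext (by
        show ⁅s (a, 1), s (1, b * c)⁆ = ⁅s (a, 1), s (1, b)⁆ * ⁅s (a, 1), s (1, c)⁆
        rw [commutatorElement_eq_of_map_eq τ hτ.2.1 (a' := s (a, 1)) (b' := s (1, b) * s (1, c))
          rfl (by simp [hs]), commutatorElement_mul_right_eq_mul_conj, mul_assoc _ (s (1, b)),
          hcen a c]
        group)))
    (fun a a' => MonoidHom.ext fun b => Subtype.ext (by
      show ⁅s (a * a', 1), s (1, b)⁆ = ⁅s (a, 1), s (1, b)⁆ * ⁅s (a', 1), s (1, b)⁆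
      rw [commutatorElement_eq_of_map_eq τ hτ.2.1 (a' := s (a, 1) * s (a', 1)) (b' := s (1, b))
        (by simp [hs]) rfl, commutatorElement_mul_left_eq_conj_mul, hcen a' b, hcen a' b]
      group))
  obtain ⟨g, hg⟩ := exists_abTensor_lift γ
  let C := (τ.ker.subtype.comp g).range
  have hC : C ≤ τ.ker := by rintro _ ⟨t, rfl⟩; exact (g t).2
  have : C.Normal := normal_of_le_center (hC.trans hτ.2.1)
  let N := ⁅Δ₁, Δ₁⁆ ⊔ ⁅Δ₂, Δ₂⁆ ⊔ C
  have hN : commutator Δ ≤ N := by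
    rw [← Normal.quotient_commutative_iff_commutator_le]
    let q := QuotientGroup.mk' N
    have hq : ∀ x y : Δ, ⁅x, y⁆ ∈ N → Commute (q x) (q y) := fun x y h => by
      rw [← commutatorElement_eq_one_iff_commute, ← map_commutatorElement]
      exact (QuotientGroup.eq_one_iff _).mpr h
    have h12 : ∀ x ∈ Δ₁, ∀ y ∈ Δ₂, Commute (q x) (q y) := fun x hx y hy => hq x y (by
      refine mem_sup_right ⟨abTmul Q₁ Q₂ (τ x).1 (τ y).2, ?_⟩
      show (g _ : Δ) = _
      rw [hg]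
      exact commutatorElement_eq_of_map_eq τ hτ.2.1 (by rw [hs]; exact Prod.ext rfl (Eq.symm hx))
        (by rw [hs]; exact Prod.ext (Eq.symm hy) rfl))
    have hdec : ∀ x : Δ, ∃ x₁ ∈ Δ₁, ∃ x₂ ∈ Δ₂, x = x₁ * x₂ := fun x =>
      ⟨s ((τ x).1, 1), congrArg Prod.snd (hs _), (s ((τ x).1, 1))⁻¹ * x,
        by simp [Δ₂, MonoidHom.mem_ker, hs], by group⟩
    refine ⟨⟨fun x y => ?_⟩⟩
    obtain ⟨x, rfl⟩ := QuotientGroup.mk'_surjective N x
    obtain ⟨y, rfl⟩ := QuotientGroup.mk'_surjective N y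
    obtain ⟨x₁, hx₁, x₂, hx₂, rfl⟩ := hdec x
    obtain ⟨y₁, hy₁, y₂, hy₂, rfl⟩ := hdec y
    have : Commute (q x₁ * q x₂) (q y₁ * q y₂) :=
      Commute.mul_left
        (Commute.mul_right
          (hq _ _ (mem_sup_left (mem_sup_left (commutator_mem_commutator hx₁ hy₁))))
          (h12 _ hx₁ _ hy₂))
        (Commute.mul_right (h12 _ hy₁ _ hx₂).symm
          (hq _ _ (mem_sup_left (mem_sup_right (commutator_mem_commutator hx₂ hy₂)))))
    rw [← map_mul, ← map_mul] at this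
    exact this
  let Φ : A × B × AbTensor Q₁ Q₂ → τ.ker := fun p =>
    ⟨_, hk₁ _ (π₁ p.1).2.1⟩ * ⟨_, hk₂ _ (π₂ p.2.1).2.1⟩ * g p.2.2
  refine Nat.card_le_card_of_surjective Φ ?_
  rintro ⟨k, hk⟩
  have h1 := hN (hτ.2.2 hk)
  rw [← SetLike.mem_coe, mul_normal] at h1
  obtain ⟨d, hd, c, ⟨t, rfl⟩, rfl⟩ := h1
  rw [mul_normal] at hd
  obtain ⟨d₁, hd₁, d₂, hd₂, rfl⟩ := hd
  rw [← map_subtype_commutator] at hd₁ hd₂
  obtain ⟨d₁, hd₁, rfl⟩ := hd₁
  obtain ⟨d₂, hd₂, rfl⟩ := hd₂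
  have h2 : τ d₁ * τ d₂ = 1 := by
    have h3 : τ (g t) = 1 := (g t).2
    have h4 : τ (d₁ * d₂ * g t) = 1 := hk
    rwa [map_mul, map_mul, h3, mul_one] at h4
  have h5 : (τ d₁).1 = 1 := by
    have := congrArg Prod.fst h2
    rwa [Prod.fst_mul, show (τ d₂).1 = 1 from d₂.2, mul_one] at this
  have h6 : (τ d₂).2 = 1 := by
    have := congrArg Prod.snd h2
    rwa [Prod.snd_mul, show (τ d₁).2 = 1 from d₁.2, one_mul] at this
  obtain ⟨a, ha⟩ := hπ₁ ⟨d₁, h5, hd₁⟩
  obtain ⟨b, hb⟩ := hπ₂ ⟨d₂, h6, hd₂⟩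
  refine ⟨(a, b, t), Subtype.ext ?_⟩
  simp only [Φ, ha, hb]
  rfl

theorem hasSchurMultiplier_prod {A B : Type*} [CommGroup A] [CommGroup B]
    (hA : HasSchurMultiplier Q₁ A) (hB : HasSchurMultiplier Q₂ B) :
    HasSchurMultiplier (Q₁ × Q₂) (A × B × AbTensor Q₁ Q₂) := by
  have := finite_base hA
  have := finite_base hB
  obtain ⟨Γ₁, _, _, σ₁, hσ₁, ⟨e₁⟩⟩ := hA.1
  obtain ⟨Γ₂, _, _, σ₂, hσ₂, ⟨e₂⟩⟩ := hB.1
  let β : Γ₁ × Γ₂ →* Γ₁ × Γ₂ →* AbTensor Q₁ Q₂ :=
    (MonoidHom.compHom' (σ₂.comp (MonoidHom.snd _ _))).comp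
      ((abTmul Q₁ Q₂).comp (σ₁.comp (MonoidHom.fst _ _)))
  have hβ : ∀ x y, β x y = abTmul Q₁ Q₂ (σ₁ x.1) (σ₂ y.2) := fun x y => rfl
  let ξ : Twist β →* Q₁ × Q₂ := (σ₁.prodMap σ₂).comp (Twist.proj β)
  have hξ : Surjective ξ := (hσ₁.1.prodMap hσ₂.1).comp Twist.proj_surjective
  have hk₁ : ∀ x ∈ ξ.ker, σ₁ x.fst.1 = 1 := fun x hx => congrArg Prod.fst hx
  have hk₂ : ∀ x ∈ ξ.ker, σ₂ x.fst.2 = 1 := fun x hx => congrArg Prod.snd hx
  have hc : ξ.ker ≤ center _ := fun x hx => Twist.mem_center x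
    (Subgroup.mem_center_iff.mpr fun g => Prod.ext
      (Subgroup.mem_center_iff.mp (hσ₁.2.1 (hk₁ x hx)) _)
      (Subgroup.mem_center_iff.mp (hσ₂.2.1 (hk₂ x hx)) _))
    (fun g => by rw [hβ, hβ, hk₁ x hx, hk₂ x hx]; simp)
  let f : ↥(ξ.ker ⊓ commutator (Twist β)) →* A × B × AbTensor Q₁ Q₂ := MonoidHom.mk'
    (fun x => (e₁ ⟨x.1.fst.1, hk₁ _ x.2.1⟩, e₂ ⟨x.1.fst.2, hk₂ _ x.2.1⟩, x.1.snd))
    (fun x y => Prod.ext (by simp only [Prod.fst_mul, ← map_mul]; rfl) (Prod.ext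
      (by simp only [Prod.fst_mul, Prod.snd_mul, ← map_mul]; rfl)
      (by simp [hβ, hk₁ _ x.2.1])))
  let i₁ : Γ₁ →* Twist β := MonoidHom.mk' (fun g => ⟨(g, 1), 1⟩) (fun a b => by ext <;> simp [hβ])
  let i₂ : Γ₂ →* Twist β := MonoidHom.mk' (fun g => ⟨(1, g), 1⟩) (fun a b => by ext <;> simp [hβ])
  let i₃ : AbTensor Q₁ Q₂ →* Twist β := MonoidHom.mk' (fun t => ⟨1, t⟩)
    (fun a b => by ext <;> simp)
  have hf : Surjective f := by
    rintro ⟨a, b, t⟩
    obtain ⟨a, rfl⟩ := e₁.surjective a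
    obtain ⟨b, rfl⟩ := e₂.surjective b
    have ha : σ₁ a = 1 := a.2
    have hb : σ₂ b = 1 := b.2
    have h1 : i₁ a ∈ commutator (Twist β) := by
      have := mem_map_of_mem i₁ (hσ₁.2.2 a.2)
      rw [map_commutator_eq] at this
      exact commutator_mono le_top le_top this
    have h2 : i₂ b ∈ commutator (Twist β) := by
      have := mem_map_of_mem i₂ (hσ₂.2.2 b.2)
      rw [map_commutator_eq] at this
      exact commutator_mono le_top le_top this
    have h3 : t ∈ (commutator (Twist β)).comap i₃ := abTensor_induction (fun x y => by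
      obtain ⟨x, rfl⟩ := hσ₁.1 x
      obtain ⟨y, rfl⟩ := hσ₂.1 y
      have := Twist.commutator_eq (β := β) (x, 1) (1, y) (by simp)
      rw [hβ, hβ, map_one, map_one, map_one, MonoidHom.one_apply, inv_one, mul_one] at this
      show (⟨1, _⟩ : Twist β) ∈ commutator _
      rw [← this]
      exact commutator_mem_commutator (mem_top _) (mem_top _)) t
    have h4 : i₁ a * i₂ b * i₃ t = ⟨(a, b), t⟩ := by
      ext <;> simp [i₁, i₂, i₃, hβ, ha]
    exact ⟨⟨⟨(a, b), t⟩, Prod.ext ha hb, h4 ▸ mul_mem (mul_mem h1 h2) h3⟩, rfl⟩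
  have := finite_ker_inf_commutator ξ hc
  have : Finite (A × B × AbTensor Q₁ Q₂) := Finite.of_surjective f hf
  have : Finite (AbTensor Q₁ Q₂) :=
    Finite.of_injective (fun t => ((1, 1, t) : A × B × AbTensor Q₁ Q₂))
      (fun a b h => congrArg (fun p => p.2.2) h)
  exact hasSchurMultiplier_of_card_le ξ hξ hc f hf
    (fun Δ _ _ τ hτ => card_ker_le_prod hA hB τ hτ)

end Product

end Cfsg.Agent.Schur
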