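import Mathlib
import Cfsg.Prelude.Def_KGroupFacts
import Cfsg.Agent.Lib.Schur.Pullback
import Cfsg.Agent.Lib.Char.Orth

/-!
Central characters of irreducible representations, and projective representations.
-/

set_option autoImplicit false

namespace Cfsg.Agent.Schur

open Subgroup Function
open scoped commutatorElement IsMulCommutative

universe u v w

variable {G : Type u} [Group G]

/-- A matrix form of an irreducible character, with its central character. -/
theorem exists_GL_of_irr {χ : G → ℂ} (hχ : IsIrrCharacter G χ) :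
    ∃ (n : ℕ) (ρ : G →* GL (Fin n) ℂ) (l : center G →* ℂˣ), 0 < n ∧ χ 1 = n ∧
      (∀ z : center G, ρ z = Matrix.GeneralLinearGroup.scalar (Fin n) (l z)) ∧
      (∀ z : center G, χ z = n * l z) ∧ ∀ g, χ g = Matrix.trace (ρ g : Matrix (Fin n) (Fin n) ℂ) := by
  obtain ⟨n, ρ, hρ, rfl⟩ := hχ
  have hV := ((Char.isIrreducible_iff ρ).1 hρ).1
  have hn : 0 < n := by
    rcases Nat.eq_zero_or_pos n with rfl | h
    · exact absurd hV (not_nontrivial _)
    · exact h
  have h1 : ∀ z : center G, ∃ c : ℂ, ρ z = c • (1 : (Fin n → ℂ) →ₗ[ℂ] (Fin n → ℂ)) := fun z =>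
    Char.schur_scalar ρ hρ _ (fun g => by
      rw [← map_mul, ← map_mul, Subgroup.mem_center_iff.mp z.2 g])
  choose c hc using h1
  have hinj : Injective (fun a : ℂ => a • (1 : (Fin n → ℂ) →ₗ[ℂ] (Fin n → ℂ))) := by
    intro a b hab
    have := congrFun (LinearMap.congr_fun hab (fun _ => 1)) ⟨0, hn⟩
    simpa using this
  let l0 : center G →* ℂ :=
    { toFun := c
      map_one' := hinj (by simp only [← hc]; simp)
      map_mul' := fun a b => hinj (by
        simp only [← hc]
        rw [Subgroup.coe_mul, map_mul, hc, hc, smul_mul_smul_comm, mul_one]) }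
  let ρ0 : G →* Matrix (Fin n) (Fin n) ℂ :=
    (LinearMap.toMatrixAlgEquiv' (R := ℂ) (n := Fin n)).toMonoidHom.comp ρ
  have hρ0 : ∀ g, ρ0 g = LinearMap.toMatrix' (ρ g) := fun g => rfl
  have htr : ∀ g, ρ.character g = Matrix.trace (ρ0 g) := fun g => by
    rw [hρ0, Representation.character, LinearMap.trace_eq_matrix_trace ℂ (Pi.basisFun ℂ (Fin n)),
      LinearMap.toMatrix_eq_toMatrix']
  have hz : ∀ z : center G, ρ0 z = Matrix.scalar (Fin n) (c z) := fun z => by
    rw [hρ0, hc, map_smul, LinearMap.toMatrix'_one, Matrix.scalar_apply, Matrix.smul_one_eq_diagonal]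
  refine ⟨n, ρ0.toHomUnits, l0.toHomUnits, hn, by simp [ρ.char_one], ?_, ?_, htr⟩
  · intro z
    apply Units.ext
    exact hz z
  · intro z
    rw [htr, hz]
    simp [l0]

theorem central_char_pow_eq_one {n : ℕ} (ρ : G →* GL (Fin n) ℂ) {z : G} {c : ℂˣ}
    (hz : z ∈ commutator G) (h : ρ z = Matrix.GeneralLinearGroup.scalar (Fin n) c) :
    c ^ n = 1 := by
  have h1 : (Matrix.GeneralLinearGroup.det.comp ρ) z = 1 :=
    Abelianization.commutator_subset_ker _ hz
  rw [MonoidHom.comp_apply, h] at h1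
  apply Units.ext
  have := congrArg Units.val h1
  simpa using this

/-- Central elements are separated by representations in which the centre acts by scalars. -/
theorem exists_GL_ne_one [Finite G] {z : G} (hz1 : z ≠ 1) :
    ∃ (n : ℕ) (ρ : G →* GL (Fin n) ℂ), (∀ w ∈ center G, ρ w ∈ center (GL (Fin n) ℂ)) ∧
      ρ z ≠ 1 := by
  classical
  have := Fintype.ofFinite G
  by_contra hcon
  push Not at hcon
  have h1 : ∀ χ : IrrCharacter G, χ.1 z = χ.1 1 := fun χ => by
    obtain ⟨n, ρ, l, -, -, h3, -, h5⟩ := exists_GL_of_irr χ.2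
    have := hcon n ρ (fun w hw => by
      rw [h3 ⟨w, hw⟩, Matrix.GeneralLinearGroup.center_eq_range_scalar]; exact ⟨_, rfl⟩)
    rw [h5, h5, this, map_one]
  have h2 := Char.sum_irr_one_mul z
  have h3 := Char.sum_irr_one_mul (1 : G)
  simp only [h1, if_neg hz1] at h2
  rw [h2, if_pos rfl] at h3
  exact Char.natCard_ne_zero_complex G h3.symm

/-- Schur: the square of the order of a character of `K ≤ Z(G) ⊓ G'` divides the index of `K`. -/
theorem orderOf_sq_dvd_index [Finite G] (K : Subgroup G) (hK : K ≤ center G)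
    (hK' : K ≤ commutator G) (lam : K →* ℂˣ) : orderOf lam ^ 2 ∣ K.index := by
  classical
  have := Fintype.ofFinite G
  choose n ρ l hn h1 h2 h3 h4 using fun χ : IrrCharacter G => exists_GL_of_irr χ.2
  let l' : IrrCharacter G → (K →* ℂˣ) := fun χ => (l χ).comp (inclusion hK)
  have key : (Nat.card G : ℂ) =
      Nat.card K * ∑ χ ∈ Finset.univ.filter (fun χ => l' χ = lam), ((n χ : ℂ) ^ 2) := by
    have e1 : ∑ z : K, ((lam z)⁻¹ : ℂˣ) * ∑ χ : IrrCharacter G, χ.1 1 * χ.1 z =
        (Nat.card G : ℂ) := by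
      rw [Finset.sum_eq_single 1]
      · simp only [map_one, inv_one, Units.val_one, one_mul, OneMemClass.coe_one]
        rw [Char.sum_irr_one_mul, if_pos rfl]
      · intro b _ hb
        rw [Char.sum_irr_one_mul, if_neg (show ¬ (b : G) = 1 from fun h => hb (Subtype.ext h)), mul_zero]
      · simp
    rw [← e1]
    simp only [Finset.mul_sum]
    rw [Finset.sum_comm, Finset.sum_filter]
    refine Finset.sum_congr rfl fun χ _ => ?_
    have e2 : ∀ z : K, (((lam z)⁻¹ : ℂˣ) : ℂ) * (χ.1 1 * χ.1 z) =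
        (n χ : ℂ) ^ 2 * ((Units.coeHom ℂ).comp (l' χ * lam⁻¹)) z := fun z => by
      rw [h1, h3 χ ⟨z, hK z.2⟩]
      simp only [l', MonoidHom.comp_apply, MonoidHom.mul_apply, MonoidHom.inv_apply,
        Units.coeHom_apply, Units.val_mul]
      have : inclusion hK z = ⟨z, hK z.2⟩ := rfl
      rw [this]; ring
    simp only [e2]
    rw [← Finset.mul_sum, sum_hom_units]
    by_cases h : l' χ = lam
    · rw [if_pos h, if_pos (by rw [h]; ext; simp), Nat.card_eq_fintype_card]
      ring
    · rw [if_neg h, if_neg, Nat.cast_zero, mul_zero]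
      intro h'
      apply h
      rw [← mul_inv_eq_one]
      ext z
      exact DFunLike.congr_fun h' z
  have key2 : K.index = ∑ χ ∈ Finset.univ.filter (fun χ => l' χ = lam), (n χ) ^ 2 := by
    have h5 : Nat.card G =
        Nat.card K * ∑ χ ∈ Finset.univ.filter (fun χ => l' χ = lam), (n χ) ^ 2 := by
      exact_mod_cast key
    rw [← K.card_mul_index] at h5
    exact Nat.eq_of_mul_eq_mul_left Nat.card_pos h5
  rw [key2]
  refine Finset.dvd_sum fun χ hχ => pow_dvd_pow_of_dvd ?_ 2
  rw [orderOf_dvd_iff_pow_eq_one, ← (Finset.mem_filter.mp hχ).2]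
  ext z
  have := central_char_pow_eq_one (ρ χ) (hK' z.2) (h2 χ ⟨z, hK z.2⟩)
  exact congrArg Units.val this

theorem exponent_sq_dvd_index [Finite G] (K : Subgroup G) (hK : K ≤ center G)
    (hK' : K ≤ commutator G) : Monoid.exponent K ^ 2 ∣ K.index := by
  have := isMulCommutative_of_le_center hK
  obtain ⟨e⟩ := CommGroup.monoidHom_mulEquiv_of_hasEnoughRootsOfUnity K ℂ
  obtain ⟨g, hg⟩ := Monoid.exists_orderOf_eq_exponent (G := K) Monoid.ExponentExists.of_finite
  rw [← hg, ← e.symm.orderOf_eq g]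
  exact orderOf_sq_dvd_index K hK hK' _

/-- If all projective representations of `Q` lift along `σ`, the fibre product with a finite
central extension has kernel meeting the commutator subgroup trivially. -/
theorem pbFst_ker_inf_commutator_of_lift {Q : Type v} [Group Q] {Γ : Type w} [Group Γ]
    (σ : Γ →* Q)
    (hlift : ∀ (n : ℕ) (γ : Q →* (GL (Fin n) ℂ ⧸ center (GL (Fin n) ℂ))),
      ∃ ρ : Γ →* GL (Fin n) ℂ, (QuotientGroup.mk' (center (GL (Fin n) ℂ))).comp ρ = γ.comp σ)
    [Finite G] (τ : G →* Q) (hτ : Surjective τ) (hc : τ.ker ≤ center G) :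
    (pbFst σ τ).ker ⊓ commutator _ = ⊥ := by
  rw [eq_bot_iff]
  rintro y ⟨hy1, hy2⟩
  have hy1' : y.1.1 = 1 := hy1
  by_contra hne
  have hne' : y.1.2 ≠ 1 := fun h => hne (Subtype.ext (Prod.ext hy1' h))
  obtain ⟨n, ρ, hρ, hρ1⟩ := exists_GL_ne_one hne'
  obtain ⟨γ, hγ⟩ := exists_factor_of_ker_le τ hτ ((QuotientGroup.mk' (center _)).comp ρ)
    (fun w hw => (QuotientGroup.eq_one_iff _).mpr (hρ w (hc hw)))
  obtain ⟨ρ', hρ'⟩ := hlift n γ
  have h1 : commutator (pb σ τ) ≤ (ρ'.comp (pbFst σ τ)).eqLocus (ρ.comp (pbSnd σ τ)) := by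
    have key : ∀ a : pb σ τ, QuotientGroup.mk' (center _) (ρ' a.1.1) =
        QuotientGroup.mk' (center _) (ρ a.1.2) := fun a => by
      have e1 := DFunLike.congr_fun hρ' a.1.1
      have e2 := DFunLike.congr_fun hγ a.1.2
      simp only [MonoidHom.comp_apply] at e1 e2
      rw [e1, ← e2, mem_pb.mp a.2]
    rw [commutator_def, commutator_le]
    intro a _ b _
    show (ρ'.comp (pbFst σ τ)) ⁅a, b⁆ = (ρ.comp (pbSnd σ τ)) ⁅a, b⁆
    rw [map_commutatorElement, map_commutatorElement]
    exact commutatorElement_eq_of_map_eq (QuotientGroup.mk' (center _))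
      (QuotientGroup.ker_mk' _).le (key a) (key b)
  have h2 : ρ' y.1.1 = ρ y.1.2 := h1 hy2
  rw [hy1', map_one] at h2
  exact hρ1 h2.symm

end Cfsg.Agent.Schur
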