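import Mathlib
import Cfsg.Prelude.Def_KGroupFacts
import Cfsg.Agent.Lib.Schur.Pullback

/-!
Restriction and corestriction between the multipliers of a group and a subgroup.
-/

set_option autoImplicit false

namespace Cfsg.Agent.Schur

open Subgroup Function
open scoped commutatorElement IsMulCommutative

universe u v w

section Hopf

variable {F : Type u} {Q : Type w} [Group F] [Group Q]

/-- The surjection `R → R / [R, F]`. -/
def toHopfKer (π : F →* Q) : π.ker →* (hopfMap π).ker :=
  ((QuotientGroup.mk' _).comp π.ker.subtype).codRestrict _ (fun r => r.2)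

theorem toHopfKer_coe (π : F →* Q) (r : π.ker) :
    (toHopfKer π r : HopfExt π) = QuotientGroup.mk (r : F) := rfl

theorem toHopfKer_surjective (π : F →* Q) : Surjective (toHopfKer π) := by
  rintro ⟨x, hx⟩
  obtain ⟨x, rfl⟩ := QuotientGroup.mk_surjective x
  exact ⟨⟨x, hx⟩, rfl⟩

theorem toHopfKer_conj (π : F →* Q) (r r' : π.ker) (f : F) (h : (r' : F) = f⁻¹ * r * f) :
    toHopfKer π r' = toHopfKer π r := by
  apply Subtype.ext
  have := Subgroup.mem_center_iff.mp (hopfMap_ker_le_center π (toHopfKer π r).2)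
    (QuotientGroup.mk f⁻¹)
  rw [toHopfKer_coe] at this
  rw [toHopfKer_coe, toHopfKer_coe, h, QuotientGroup.mk_mul, QuotientGroup.mk_mul, this]
  simp

/-- A conjugation-invariant homomorphism on `R` factors through `R / [R, F]`. -/
theorem exists_factor_hopfKer (π : F →* Q) {C : Type*} [Group C] (N : π.ker →* C)
    (hN : ∀ (r r' : π.ker) (f : F), (r' : F) = f⁻¹ * r * f → N r' = N r) :
    ∃ k : (hopfMap π).ker →* C, k.comp (toHopfKer π) = N := by
  apply exists_factor_of_ker_le _ (toHopfKer_surjective π)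
  intro r hr
  have h1 : (r : F) ∈ ⁅π.ker, (⊤ : Subgroup F)⁆ :=
    (QuotientGroup.eq_one_iff _).mp (congrArg Subtype.val hr)
  have h2 : ⁅π.ker, (⊤ : Subgroup F)⁆ ≤ N.ker.map π.ker.subtype := by
    rw [commutator_le]
    intro a ha g _
    have h3 : g * a⁻¹ * g⁻¹ ∈ π.ker := Normal.conj_mem inferInstance _ (inv_mem ha) g
    refine ⟨⟨a, ha⟩ * ⟨_, h3⟩, ?_, by simp [commutatorElement_def, mul_assoc]⟩
    show N _ = 1
    rw [map_mul, hN (⟨a, ha⟩ : π.ker)⁻¹ ⟨_, h3⟩ g⁻¹ (by simp), map_inv, mul_inv_cancel]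
  obtain ⟨r', hr', h⟩ := h2 h1
  rwa [← Subtype.ext h]

theorem mem_hopfMult_iff [IsFreeGroup F] [Finite Q] (π : F →* Q) (x : (hopfMap π).ker) :
    (x : HopfExt π) ∈ hopfMult π ↔ IsOfFinOrder x := by
  constructor
  · intro h
    have := finite_ker_inf_commutator (hopfMap π) (hopfMap_ker_le_center π)
    have h1 : IsOfFinOrder (⟨x, h⟩ : hopfMult π) := isOfFinOrder_of_finite _
    obtain ⟨n, hn, hx⟩ := isOfFinOrder_iff_pow_eq_one.mp h1
    have hx' : (x : HopfExt π) ^ n = 1 := congrArg Subtype.val hx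
    exact isOfFinOrder_iff_pow_eq_one.mpr ⟨n, hn, Subtype.ext hx'⟩
  · intro h
    obtain ⟨n, hn, hx⟩ := isOfFinOrder_iff_pow_eq_one.mp h
    refine ⟨x.2, hopf_torsionFree π _ n hn.ne' ?_⟩
    have : (x : HopfExt π) ^ n = 1 := congrArg Subtype.val hx
    rw [this]; exact one_mem _

/-- A homomorphism between the groups `R / [R, F]` restricts to the multipliers. -/
theorem exists_restrict_hopfMult [IsFreeGroup F] [Finite Q] (π : F →* Q) {F' Q' : Type*}
    [Group F'] [Group Q'] [IsFreeGroup F'] [Finite Q'] (π' : F' →* Q')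
    (k : (hopfMap π).ker →* (hopfMap π').ker) :
    ∃ k' : hopfMult π →* hopfMult π', ∀ x : hopfMult π,
      (k' x : HopfExt π') = k ⟨x, x.2.1⟩ := by
  refine ⟨((hopfMap π').ker.subtype.comp (k.comp (inclusion inf_le_left))).codRestrict _ ?_,
    fun x => rfl⟩
  intro x
  exact (mem_hopfMult_iff π' _).mpr (k.isOfFinOrder ((mem_hopfMult_iff π ⟨x, x.2.1⟩).mp x.2))

theorem exists_res_cor_hopfKer [Finite Q] (π : F →* Q) (U : Subgroup Q) :
    ∃ (res : (hopfMap π).ker →* (hopfMap (π.subgroupComap U)).ker)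
      (cor : (hopfMap (π.subgroupComap U)).ker →* (hopfMap π).ker),
      ∀ x, cor (res x) = x ^ (U.comap π).index := by
  classical
  set F₁ := U.comap π with hF₁
  set π₁ := π.subgroupComap U with hπ₁
  have hR : π.ker ≤ F₁ := fun r hr => by
    have : π r = 1 := hr
    simp [hF₁, this]
  have : F₁.FiniteIndex := by
    have : π.ker.FiniteIndex := Subgroup.finiteIndex_ker π
    exact Subgroup.finiteIndex_of_le hR
  have := Fintype.ofFinite (F ⧸ F₁)
  have hconj : ∀ (t : F) (r : π.ker), t⁻¹ * r * t ∈ π.ker := fun t r => by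
    simpa using Normal.conj_mem inferInstance _ r.2 t⁻¹
  let c : F → (π.ker →* π₁.ker) := fun t =>
    { toFun := fun r => ⟨⟨t⁻¹ * r * t, hR (hconj t r)⟩, Subtype.ext (hconj t r)⟩
      map_one' := by ext; simp
      map_mul' := fun a b => by ext; simp [mul_assoc] }
  have hc : ∀ t r, ((c t r : F₁) : F) = t⁻¹ * r * t := fun t r => rfl
  have hc2 : ∀ t t' : F, (QuotientGroup.mk t : F ⧸ F₁) = QuotientGroup.mk t' →
      ∀ r, toHopfKer π₁ (c t' r) = toHopfKer π₁ (c t r) := fun t t' h r => by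
    refine toHopfKer_conj π₁ _ _ ⟨t⁻¹ * t', QuotientGroup.eq.mp h⟩ (Subtype.ext ?_)
    simp [hc, mul_assoc]
  let N : π.ker →* (hopfMap π₁).ker := ∏ q : F ⧸ F₁, (toHopfKer π₁).comp (c q.out)
  have hN : ∀ r, N r = ∏ q : F ⧸ F₁, toHopfKer π₁ (c q.out r) := fun r => by
    simp [N]
  obtain ⟨res, hres⟩ := exists_factor_hopfKer π N (fun r r' f h => by
    rw [hN, hN, ← Equiv.prod_comp (MulAction.toPerm f) (fun q : F ⧸ F₁ => toHopfKer π₁ (c q.out r))]
    refine Finset.prod_congr rfl fun q _ => ?_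
    have e1 : c q.out r' = c (f * q.out) r := by
      apply Subtype.ext; apply Subtype.ext
      rw [hc, hc, h]; group
    rw [e1]
    apply hc2
    rw [QuotientGroup.out_eq', MulAction.toPerm_apply]
    conv_lhs => rw [← QuotientGroup.out_eq' q]
    rfl)
  let incl : π₁.ker →* π.ker :=
    (F₁.subtype.comp π₁.ker.subtype).codRestrict _ (fun r => congrArg Subtype.val r.2)
  obtain ⟨cor, hcor⟩ := exists_factor_hopfKer π₁ ((toHopfKer π).comp incl) (fun r r' f h =>
    toHopfKer_conj π _ _ f (congrArg Subtype.val h))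
  refine ⟨res, cor, fun x => ?_⟩
  obtain ⟨r, rfl⟩ := toHopfKer_surjective π x
  have e1 : res (toHopfKer π r) = N r := DFunLike.congr_fun hres r
  have e2 : ∀ t, cor (toHopfKer π₁ (c t r)) = toHopfKer π r := fun t =>
    (DFunLike.congr_fun hcor (c t r)).trans (toHopfKer_conj π _ _ t rfl)
  rw [e1, hN, map_prod]
  simp only [e2]
  rw [Finset.prod_const, Finset.card_univ, ← Nat.card_eq_fintype_card]
  rfl

end Hopf

/-- Restriction and corestriction: `cor ∘ res` is the `[G : U]`-th power map. -/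
theorem exists_res_cor {G : Type u} [Group G] (U : Subgroup G) {A B : Type*} [CommGroup A]
    [CommGroup B] (hA : HasSchurMultiplier G A) (hB : HasSchurMultiplier U B) :
    ∃ (res : A →* B) (cor : B →* A), ∀ a, cor (res a) = a ^ U.index := by
  have := finite_base hA
  let π := FreeGroup.lift (id : G → G)
  have hπ : Surjective π := freeGroup_lift_id_surjective
  have : (U.comap π).FiniteIndex := ⟨by
    rw [Subgroup.index_comap_of_surjective _ hπ]; exact FiniteIndex.index_ne_zero⟩
  have hπ₁ : Surjective (π.subgroupComap U) := π.subgroupComap_surjective_of_surjective U hπ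
  obtain ⟨e⟩ := nonempty_equiv_hopfMult hA π hπ
  obtain ⟨e₁⟩ := nonempty_equiv_hopfMult hB _ hπ₁
  obtain ⟨res, cor, h⟩ := exists_res_cor_hopfKer π U
  obtain ⟨res', hres⟩ := exists_restrict_hopfMult _ _ res
  obtain ⟨cor', hcor⟩ := exists_restrict_hopfMult _ _ cor
  refine ⟨e₁.symm.toMonoidHom.comp (res'.comp e.toMonoidHom),
    e.symm.toMonoidHom.comp (cor'.comp e₁.toMonoidHom), fun a => ?_⟩
  have : cor' (res' (e a)) = e a ^ U.index := by
    apply Subtype.ext
    have e1 : (⟨res' (e a), (res' (e a)).2.1⟩ : (hopfMap _).ker) = res ⟨e a, (e a).2.1⟩ :=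
      Subtype.ext (hres _)
    rw [hcor, e1, h, Subgroup.index_comap_of_surjective _ hπ]
    rfl
  simp [this]

/-- A quotient of a finite abelian group embeds in it. -/
theorem exists_injective_of_surjective {B C : Type*} [CommGroup B] [CommGroup C] [Finite B]
    (f : B →* C) (hf : Surjective f) : ∃ g : C →* B, Injective g := by
  have : Finite C := Finite.of_surjective f hf
  obtain ⟨e⟩ := CommGroup.monoidHom_mulEquiv_of_hasEnoughRootsOfUnity B ℂ
  obtain ⟨e'⟩ := CommGroup.monoidHom_mulEquiv_of_hasEnoughRootsOfUnity C ℂ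
  let d : (C →* ℂˣ) →* (B →* ℂˣ) := MonoidHom.compHom' f
  have hd : Injective d := fun a b h => (MonoidHom.cancel_right hf).mp h
  exact ⟨e.toMonoidHom.comp (d.comp e'.symm.toMonoidHom),
    e.injective.comp (hd.comp e'.symm.injective)⟩

theorem hasSchurMultiplier_of_isCyclic {G : Type u} [Group G] [Finite G] [IsCyclic G]
    {A : Type v} [CommGroup A] [Subsingleton A] : HasSchurMultiplier G A := by
  apply hasSchurMultiplier_of_subsingleton
  intro Δ _ _ τ hτ
  have := τ.isMulCommutative_of_isCyclic_of_ker_le_center hτ.2.1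
  exact eq_bot_iff.mpr (hτ.2.2.trans (commutator_eq_bot Δ).le)

theorem pow_card_eq_one_mult {G : Type u} [Group G] {A : Type v} [CommGroup A]
    (hA : HasSchurMultiplier G A) (a : A) : a ^ Nat.card G = 1 := by
  have := finite_base hA
  have hB : HasSchurMultiplier (⊥ : Subgroup G) PUnit.{1} := hasSchurMultiplier_of_isCyclic
  obtain ⟨res, cor, h⟩ := exists_res_cor ⊥ hA hB
  rw [← Subgroup.index_bot, ← h, Subsingleton.elim (res a) 1, map_one]

end Cfsg.Agent.Schur
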